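import Cfsg.Agent.BenderUnique.Basic

/-!
Bender's method: subgroups invariant under a large part of the Fitting subgroup of a maximal local subgroup.
-/

set_option autoImplicit false
set_option linter.style.haveILetI false

namespace CfsgLib.BenderUnique

open CfsgLib.Components
open scoped commutatorElement

universe u

variable {G : Type u} [Group G] [Finite G]

local notation "π'[" H "]" => Cfsg.primesNotDvd (Nat.card (Cfsg.fittingOf H))

/-- `O_π` of a group is characteristic. -/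
theorem piCore_characteristic (π : Set ℕ) (X : Type*) [Group X] [Finite X] : (Cfsg.piCore π X).Characteristic := by
  refine Subgroup.characteristic_iff_map_le.2 fun φ => ?_
  haveI := (inferInstance : (Cfsg.piCore π X).Normal).map φ.toMonoidHom φ.surjective
  exact Hall.le_piCore (Hall.isPiSubgroup_map _ Hall.isPiSubgroup_piCore)

/-- The preimage of a characteristic subgroup of the quotient by a characteristic subgroup. -/
theorem comap_characteristic {X : Type*} [Group X] (K : Subgroup X) [K.Normal] [hK : K.Characteristic]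
    (S : Subgroup (X ⧸ K)) [hS : S.Characteristic] : (S.comap (QuotientGroup.mk' K)).Characteristic := by
  refine Subgroup.characteristic_iff_comap_eq.2 fun φ => ?_
  let ψ := QuotientGroup.congr K K φ (Subgroup.characteristic_iff_map_eq.1 hK φ)
  conv_rhs => rw [← Subgroup.characteristic_iff_comap_eq.1 hS ψ]
  rfl

theorem inf_eq_bot_of_coprime_card {A B : Subgroup G} (h : (Nat.card A).Coprime (Nat.card B)) {x : G}
    (hA : x ∈ A) (hB : x ∈ B) : x = 1 := by
  have := CfsgLib.CoprimeAction.inf_eq_bot_of_coprime h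
  exact Subgroup.mem_bot.1 (this ▸ ⟨hA, hB⟩)

section Setting

variable {H M R : Subgroup G} [Group.IsSolvable R]
  (hC : ∀ p : ℕ, p.Prime → p ∣ Nat.card (Cfsg.fittingOf H) →
    Subgroup.centralizer (centerPart p H : Set G) ≤ H)
  (hM : M ≤ Cfsg.fittingOf H) (hCM : Cfsg.fittingOf H ⊓ Subgroup.centralizer (M : Set G) ≤ M)
  (hXR : H ⊓ Subgroup.centralizer (Cfsg.fittingOf H : Set G) ≤ Subgroup.normalizer (R : Set G))

include hC hM hCM hXR in
/-- An element of `R` of order prime to `|F|` centralizing `M` is trivial. -/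
theorem eq_one_of_centralizes (hne : Cfsg.fittingOf H ≠ ⊥) {x : G} (hxR : x ∈ R)
    (hxM : x ∈ Subgroup.centralizer (M : Set G)) (hcop : (orderOf x).Coprime (Nat.card (Cfsg.fittingOf H))) :
    x = 1 := by
  haveI := PrimeAction.fittingOf_nilpotent H
  obtain ⟨p, hp, hpd⟩ := Nat.exists_prime_and_dvd (n := Nat.card (Cfsg.fittingOf H))
    fun h => hne (Subgroup.card_eq_one.1 h)
  haveI := Fact.mk hp
  have hZM : centerPart p H ≤ M :=
    ((centerPart_le_center p H).trans (inf_le_inf_left _ (Subgroup.centralizer_le hM))).trans hCM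
  have hxH : x ∈ H := hC p hp hpd (Subgroup.centralizer_le hZM hxM)
  have hxC : x ∈ Subgroup.centralizer (Cfsg.fittingOf H : Set G) :=
    mem_centralizer_of_coprime (normalizer_le_normalizer_fittingOf H (Subgroup.le_normalizer hxH)) hcop _ M rfl hM
      hCM hxM
  exact orderOf_eq_one_iff.1 (Nat.eq_one_of_dvd_coprimes hcop dvd_rfl
    (orderOf_dvd_of_mem_inf hXR hxR hxH hxC))

include hC hM hCM hXR in
/-- No non-trivial element of an `M`-invariant `π'`-subgroup of `R` centralizes a central primary part. -/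
theorem inf_centralizer_eq_bot {Q : Subgroup G} (hQR : Q ≤ R) (hMQ : M ≤ Subgroup.normalizer (Q : Set G))
    (hcop : (Nat.card Q).Coprime (Nat.card (Cfsg.fittingOf H))) {p : ℕ} (hp : p.Prime)
    (hpd : p ∣ Nat.card (Cfsg.fittingOf H)) :
    Q ⊓ Subgroup.centralizer (centerPart p H : Set G) = ⊥ := by
  refine (Subgroup.eq_bot_iff_forall _).2 fun c hc => ?_
  have hne : Cfsg.fittingOf H ≠ ⊥ := fun h => hp.not_dvd_one (by rw [h, Subgroup.card_bot] at hpd; exact hpd)
  have hcH : c ∈ H := hC p hp hpd hc.2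
  refine eq_one_of_centralizes hC hM hCM hXR hne (hQR hc.1) (Subgroup.mem_centralizer_iff.2 fun m hm => ?_)
    (hcop.coprime_dvd_left (Subgroup.orderOf_dvd_natCard _ hc.1))
  have h1 : c * m * c⁻¹ * m⁻¹ ∈ Cfsg.fittingOf H :=
    mul_mem (CfsgLib.CoprimeAction.conj_mem (Subgroup.le_normalizer.trans (normalizer_le_normalizer_fittingOf H))
      hcH (hM hm)) (inv_mem (hM hm))
  have h2 : c * m * c⁻¹ * m⁻¹ ∈ Q := by
    rw [show c * m * c⁻¹ * m⁻¹ = c * (m * c⁻¹ * m⁻¹) by group]
    exact mul_mem hc.1 (CfsgLib.CoprimeAction.conj_mem hMQ hm (inv_mem hc.1))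
  have h3 := inf_eq_bot_of_coprime_card hcop h2 h1
  rw [mul_inv_eq_one, mul_inv_eq_iff_eq_mul] at h3
  exact h3.symm

include hC hM hCM hXR in
/-- Every `M`-invariant `q`-subgroup of `R`, `q` prime to `|F|`, lies in `O_π'(R)`. -/
theorem le_piCoreOf (hF2 : 2 ≤ (Nat.card (Cfsg.fittingOf H)).primeFactors.card)
    (hMR : M ≤ Subgroup.normalizer (R : Set G)) {q : ℕ} [hqf : Fact q.Prime]
    (hq : ¬ q ∣ Nat.card (Cfsg.fittingOf H)) {Q : Subgroup G} (hQR : Q ≤ R) (hQp : IsPGroup q Q)
    (hMQ : M ≤ Subgroup.normalizer (Q : Set G)) :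
    Q ≤ Cfsg.piCoreOf π'[H] R := by
  classical
  set F := Cfsg.fittingOf H with hF
  set n := Nat.card F with hn
  set K := Cfsg.piCore (Cfsg.primesNotDvd n) R with hKdef
  set π := QuotientGroup.mk' K with hπ
  have hπs := QuotientGroup.mk'_surjective K
  haveI := piCore_characteristic (Cfsg.primesNotDvd n) R
  set Qb := (Q.subgroupOf R).map π with hQb
  have hQcop : (Nat.card Q).Coprime n := by
    obtain ⟨a, ha⟩ := IsPGroup.iff_card.1 hQp
    rw [ha]; exact ((hqf.out.coprime_iff_not_dvd).2 hq).pow_left a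
  -- the centralizer of each primary part of the Fitting subgroup of the quotient
  have hcore : ∀ r : ℕ, r.Prime → r ∣ n →
      Qb ≤ Subgroup.centralizer (Cfsg.pCore r (R ⧸ K) : Set (R ⧸ K)) := by
    intro r hr hrn
    haveI := Fact.mk hr
    obtain ⟨p, hp, hpr⟩ : ∃ p ∈ n.primeFactors, p ≠ r := Finset.exists_mem_ne (by omega) r
    obtain ⟨hp, hpn, -⟩ := Nat.mem_primeFactors.1 hp
    haveI := Fact.mk hp
    set A := centerPart r H
    set B := centerPart p H
    have hAM : A ≤ M := ((centerPart_le_center r H).trans (inf_le_inf_left _ (Subgroup.centralizer_le hM))).trans hCM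
    have hBM : B ≤ M := ((centerPart_le_center p H).trans (inf_le_inf_left _ (Subgroup.centralizer_le hM))).trans hCM
    have hAB : ∀ a ∈ A, ∀ b ∈ B, a * b = b * a := fun a ha b hb =>
      Subgroup.mem_centralizer_iff.1 hb.2 a (pCoreOf_le_fittingOf r H ha.1)
    haveI := Components.pCore_characteristic (G := R ⧸ K) r
    haveI := comap_characteristic K (Cfsg.pCore r (R ⧸ K))
    set D₀ := (Cfsg.pCore r (R ⧸ K)).comap π with hD₀
    set D := D₀.map R.subtype with hD
    set Kg := Cfsg.piCoreOf π'[H] R with hKg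
    have hMD : M ≤ Subgroup.normalizer (D : Set G) := hMR.trans (normalizer_le_normalizer_map R D₀)
    have hMK : M ≤ Subgroup.normalizer (Kg : Set G) := hMR.trans (normalizer_le_normalizer_map R K)
    have hKD : Kg ≤ D := Subgroup.map_mono (fun x hx => by
      rw [hD₀, Subgroup.mem_comap, hπ, QuotientGroup.mk'_apply, (QuotientGroup.eq_one_iff x).2 hx]
      exact one_mem _)
    set E := A ⊔ D with hE
    have hAD : A ≤ Subgroup.normalizer (D : Set G) := hAM.trans hMD
    have hKcop : ∀ {t : ℕ}, t.Prime → t ∣ Nat.card Kg → ¬ t ∣ n := fun ht htd =>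
      (Hall.isPiSubgroup_map R.subtype Hall.isPiSubgroup_piCore _ ht htd).2
    obtain ⟨i, hi⟩ := IsPGroup.iff_card.1 (pCore_isPGroup (G := R ⧸ K) r)
    obtain ⟨j, hj⟩ := IsPGroup.iff_card.1 (isPGroup_centerPart r H)
    have hcardD : Nat.card D = Nat.card Kg * r ^ i := by
      rw [hD, hKg, Cfsg.piCoreOf, Subgroup.card_map_of_injective R.subtype_injective,
        Subgroup.card_map_of_injective R.subtype_injective, hD₀, PCore.card_comap_mk', hi]
    have hEdvd : Nat.card E ∣ r ^ (i + j) * Nat.card Kg := by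
      refine (Dvd.intro _ (ZJ.card_sup_mul_card_inf_of_le_normalizer hAD)).trans (dvd_of_eq ?_)
      rw [hcardD, hj, pow_add]; ring
    have hpE : ¬ p ∣ Nat.card E := fun h => by
      rcases hp.dvd_mul.1 (h.trans hEdvd) with h | h
      · exact hpr ((Nat.prime_dvd_prime_iff_eq hp hr).1 (hp.dvd_of_dvd_pow h))
      · exact hKcop hp h hpn
    have hBA : B ≤ Subgroup.normalizer (A : Set G) := fun b hb =>
      le_normalizer_centerPart r H (fittingOf_le H (hM (hBM hb)))
    have hBE : B ≤ Subgroup.normalizer (E : Set G) := by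
      intro b hb
      rw [Subgroup.mem_normalizer_iff_map_conj_eq, hE, Subgroup.map_sup,
        Subgroup.mem_normalizer_iff_map_conj_eq.1 (hBA hb),
        Subgroup.mem_normalizer_iff_map_conj_eq.1 (hMD (hBM hb))]
    have hBcop : (Nat.card B).Coprime (Nat.card E) := by
      obtain ⟨l, hl⟩ := IsPGroup.iff_card.1 (isPGroup_centerPart p H)
      rw [hl]; exact ((hp.coprime_iff_not_dvd).2 hpE).pow_left l
    have hBsolv : Group.IsSolvable B := by
      haveI := (isPGroup_centerPart p H).isNilpotent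
      infer_instance
    obtain ⟨S₀, hAS, hBS⟩ := CoprimeAction.exists_invariant_sylow_ge (p := r) hBE hBcop (Or.inl hBsolv)
      (U := A) le_sup_left (isPGroup_centerPart r H) hBA
    set S := (S₀ : Subgroup E).map E.subtype with hS
    have hSE : S ≤ E := Subgroup.map_subtype_le _
    have hBcopr : (Nat.card B).Coprime r := by
      obtain ⟨l, hl⟩ := IsPGroup.iff_card.1 (isPGroup_centerPart p H)
      rw [hl]; exact ((Nat.coprime_primes hp hr).2 hpr).pow_left l
    have hBScent : B ≤ Subgroup.centralizer (S : Set G) := by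
      refine PCore.thompson_AxB (isPGroup_centerPart r H) hBcopr (S₀.isPGroup'.map _) hAB
        (hAS.trans Subgroup.le_normalizer) hBS fun b hb => Subgroup.mem_centralizer_iff.2 fun c hc => ?_
      have hcH : c ∈ H := hC r hr hrn hc.2
      have h1 : c * b * c⁻¹ * b⁻¹ ∈ B :=
        mul_mem (CfsgLib.CoprimeAction.conj_mem (le_normalizer_centerPart p H) hcH hb) (inv_mem hb)
      have h2 : c * b * c⁻¹ * b⁻¹ ∈ S := by
        rw [show c * b * c⁻¹ * b⁻¹ = c * (b * c⁻¹ * b⁻¹) by group]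
        exact mul_mem hc.1 (CfsgLib.CoprimeAction.conj_mem hBS hb (inv_mem hc.1))
      obtain ⟨l, hl⟩ := IsPGroup.iff_card.1 (S₀.isPGroup'.map E.subtype)
      have h3 := inf_eq_bot_of_coprime_card (hl ▸ hBcopr.pow_right l) h1 h2
      rw [mul_inv_eq_one, mul_inv_eq_iff_eq_mul] at h3
      exact h3
    have hDKg : D ≤ Subgroup.normalizer (Kg : Set G) :=
      ((Subgroup.map_subtype_le _).trans Subgroup.le_normalizer).trans (normalizer_le_normalizer_map R K)
    have hEK : E ≤ Subgroup.normalizer (Kg : Set G) := sup_le (hAM.trans hMK) hDKg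
    have hEeq : E = S ⊔ Kg := by
      refine (Subgroup.eq_of_le_of_card_ge (sup_le hSE (hKD.trans le_sup_right)) ?_).symm
      refine Nat.le_of_dvd Nat.card_pos ?_
      obtain ⟨e, m, hrm, hem⟩ := Nat.exists_eq_pow_mul_and_not_dvd (Nat.card_pos (α := E)).ne' r hr.ne_one
      rw [hem]
      refine Nat.Coprime.mul_dvd_of_dvd_of_dvd (((hr.coprime_iff_not_dvd).2 hrm).pow_left e) ?_ ?_
      · refine dvd_trans (dvd_of_eq ?_) (Subgroup.card_dvd_of_le (le_sup_left : S ≤ S ⊔ Kg))
        rw [hS, Subgroup.card_map_of_injective E.subtype_injective, S₀.card_eq_multiplicity, hem,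
          Nat.factorization_mul (pow_ne_zero _ hr.ne_zero) (fun h => hrm (by rw [h]; exact dvd_zero r)), Finsupp.coe_add,
          Pi.add_apply, hr.factorization_pow, Finsupp.single_eq_same,
          Nat.factorization_eq_zero_of_not_dvd hrm, add_zero]
      · refine dvd_trans ?_ (Subgroup.card_dvd_of_le (le_sup_right : Kg ≤ S ⊔ Kg))
        refine ((((hr.coprime_iff_not_dvd).2 hrm).pow_left (i + j)).symm).dvd_of_dvd_mul_left ?_
        exact (Dvd.intro_left _ hem.symm).trans hEdvd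
    have hsec : ∀ d ∈ D, ∀ b ∈ B, b * d * b⁻¹ * d⁻¹ ∈ Kg := by
      intro d hd b hb
      have hdE : d ∈ (↑(S ⊔ Kg) : Set G) := hEeq ▸ (le_sup_right : D ≤ E) hd
      rw [Subgroup.coe_mul_of_left_le_normalizer_right S Kg (hSE.trans hEK)] at hdE
      obtain ⟨s, hs, k, hk, rfl⟩ := hdE
      show b * (s * k) * b⁻¹ * (s * k)⁻¹ ∈ Kg
      rw [show b * (s * k) * b⁻¹ * (s * k)⁻¹ = b * s * b⁻¹ * (b * k * b⁻¹ * k⁻¹) * s⁻¹ by group,
        ← Subgroup.mem_centralizer_iff.1 (hBScent hb) s hs, mul_inv_cancel_right]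
      exact CfsgLib.CoprimeAction.conj_mem (hSE.trans hEK) hs
        (mul_mem (CfsgLib.CoprimeAction.conj_mem (hBM.trans hMK) hb hk) (inv_mem hk))
    -- `Q = [Q, B]`
    have hBQ : B ≤ Subgroup.normalizer (Q : Set G) := hBM.trans hMQ
    have hQB : ⁅Q, B⁆ = Q := by
      have h1 := CoprimeAction.commutator_sup_centralizer hBQ (by
        obtain ⟨a, ha⟩ := IsPGroup.iff_card.1 hQp
        obtain ⟨l, hl⟩ := IsPGroup.iff_card.1 (isPGroup_centerPart p H)
        rw [ha, hl]
        exact ((Nat.coprime_primes hp hqf.out).2 fun e => hq (e ▸ hpn)).pow l a) (Or.inl hBsolv)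
      rwa [inf_centralizer_eq_bot hC hM hCM hXR hQR hMQ hQcop hp hpn, sup_bot_eq] at h1
    rintro _ ⟨⟨y, hyR⟩, hy, rfl⟩
    have hy' : y ∈ ⁅Q, B⁆ := hQB.symm ▸ hy
    suffices hmain : ∀ y' ∈ ⁅Q, B⁆, ∃ h : y' ∈ R, ∀ x ∈ Cfsg.pCore r (R ⧸ K), x * π ⟨y', h⟩ = π ⟨y', h⟩ * x by
      obtain ⟨h, he⟩ := hmain y hy'
      exact Subgroup.mem_centralizer_iff.2 he
    intro y' hy2
    rw [Subgroup.commutator_def] at hy2
    induction hy2 using Subgroup.closure_induction with
    | one => exact ⟨one_mem R, fun x _ => by rw [show (⟨1, one_mem R⟩ : R) = 1 from rfl, map_one, mul_one, one_mul]⟩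
    | mul a b _ _ ha hb =>
      obtain ⟨ha1, ha2⟩ := ha
      obtain ⟨hb1, hb2⟩ := hb
      refine ⟨mul_mem ha1 hb1, fun x hx => ?_⟩
      rw [show (⟨a * b, _⟩ : R) = ⟨a, ha1⟩ * ⟨b, hb1⟩ from rfl, map_mul, ← mul_assoc, ha2 x hx, mul_assoc,
        hb2 x hx, ← mul_assoc]
    | inv a _ ha =>
      obtain ⟨ha1, ha2⟩ := ha
      refine ⟨inv_mem ha1, fun x hx => ?_⟩
      rw [show (⟨a⁻¹, _⟩ : R) = (⟨a, ha1⟩ : R)⁻¹ from rfl, map_inv]
      exact (show Commute x (π ⟨a, ha1⟩) from ha2 x hx).inv_right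
    | mem z hz =>
      obtain ⟨c, hc, b, hb, rfl⟩ := hz
      have hzQ : ⁅c, b⁆ ∈ Q := CfsgLib.PCore.commutator_le_of_le_normalizer hBQ
        (Subgroup.commutator_mem_commutator hc hb)
      refine ⟨hQR hzQ, fun x hx => ?_⟩
      obtain ⟨⟨d, hdR⟩, rfl⟩ := hπs x
      have hd : d ∈ D := ⟨⟨d, hdR⟩, hx, rfl⟩
      have hcD : c ∈ Subgroup.normalizer (D : Set G) :=
        normalizer_le_normalizer_map R D₀ (Subgroup.le_normalizer (hQR hc))
      have hcK : c ∈ Subgroup.normalizer (Kg : Set G) :=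
        normalizer_le_normalizer_map R K (Subgroup.le_normalizer (hQR hc))
      -- conjugating `d` by the commutator changes it only modulo the core
      have key : ⁅c, b⁆ * d * ⁅c, b⁆⁻¹ * d⁻¹ ∈ Kg := by
        set u := b⁻¹ * d * b with hu
        have huD : u ∈ D := (Subgroup.mem_normalizer_iff''.1 (hMD (hBM hb)) d).1 hd
        have hu1 : u * d⁻¹ ∈ Kg := by
          have := hsec d hd b⁻¹ (inv_mem hb)
          simpa [hu] using this
        set v := c⁻¹ * u * c with hv
        have hvD : v ∈ D := (Subgroup.mem_normalizer_iff''.1 hcD u).1 huD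
        have hv1 := hsec v hvD b hb
        have e : ⁅c, b⁆ * d * ⁅c, b⁆⁻¹ * d⁻¹ = c * (b * v * b⁻¹ * v⁻¹) * c⁻¹ * (u * d⁻¹) := by
          rw [commutatorElement_def, hv, hu]; group
        rw [e]
        exact mul_mem ((Subgroup.mem_normalizer_iff.1 hcK _).1 hv1) hu1
      have h1 : π ⟨⁅c, b⁆, hQR hzQ⟩ * π ⟨d, hdR⟩ * (π ⟨⁅c, b⁆, hQR hzQ⟩)⁻¹ * (π ⟨d, hdR⟩)⁻¹ = 1 := by
        rw [← map_inv, ← map_inv, ← map_mul, ← map_mul, ← map_mul, hπ, QuotientGroup.mk'_apply,
          QuotientGroup.eq_one_iff]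
        obtain ⟨w, hw, hwe⟩ := key
        have hwe' : (⟨⁅c, b⁆, hQR hzQ⟩ * ⟨d, hdR⟩ * (⟨⁅c, b⁆, hQR hzQ⟩ : R)⁻¹ * (⟨d, hdR⟩ : R)⁻¹ : R) = w :=
          Subtype.ext hwe.symm
        rw [hwe']
        exact hw
      exact (commutatorElement_eq_one_iff_mul_comm.1 h1).symm
  have hFc : Qb ≤ Subgroup.centralizer (Cfsg.fittingSubgroup (R ⧸ K) : Set (R ⧸ K)) := by
    rw [Subgroup.le_centralizer_iff, Components.fittingSubgroup_eq_iSup]
    refine iSup_le fun r => ?_
    have hr := Nat.prime_of_mem_primeFactors r.2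
    haveI := Fact.mk hr
    rw [Subgroup.le_centralizer_iff]
    by_cases hrn : (r : ℕ) ∣ n
    · exact hcore r hr hrn
    · have : Cfsg.pCore (r : ℕ) (R ⧸ K) = ⊥ :=
        eq_bot_iff.2 ((Hall.pCore_le_piCore (π := Cfsg.primesNotDvd n) ⟨hr, hrn⟩).trans
          Hall.piCore_quotient_eq_bot.le)
      rw [this]
      intro x _
      exact Subgroup.mem_centralizer_iff.2 fun y hy => by simp [Subgroup.mem_bot.1 hy]
  have hQbF : Qb ≤ Cfsg.fittingSubgroup (R ⧸ K) := hFc.trans CfsgLib.Hall.centralizer_fitting_le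
  haveI := Components.fittingSubgroup_isNilpotent (G := R ⧸ K)
  have hQbp : IsPGroup q Qb := (hQp.of_equiv (Subgroup.subgroupOfEquivOfLe hQR).symm).map π
  have hsub : Qb.IsSubnormal :=
    Components.subnormal_trans hQbF
      ((CfsgLib.Hall.Struct.nilpotent_iff_forall_subnormal (G := Cfsg.fittingSubgroup (R ⧸ K))).1 inferInstance _)
      Components.fittingSubgroup_normal.isSubnormal
  have h1 : Qb = ⊥ := eq_bot_iff.2 ((Components.subnormal_le_pCore hsub hQbp).trans
    ((Hall.pCore_le_piCore (π := Cfsg.primesNotDvd n) ⟨hqf.out, hq⟩).trans Hall.piCore_quotient_eq_bot.le))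
  intro y hy
  have : π ⟨y, hQR hy⟩ ∈ Qb := Subgroup.mem_map_of_mem π hy
  rw [h1, Subgroup.mem_bot] at this
  exact ⟨⟨y, hQR hy⟩, (QuotientGroup.eq_one_iff _).1 this, rfl⟩

end Setting

end CfsgLib.BenderUnique
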